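import Cfsg.Agent.Lib.ToddCox.M21C2.Data
set_option autoImplicit false
set_option maxRecDepth 100000
namespace Cfsg.Agent.Lib.ToddCox.M21C2
theorem wordsGood : allBelow (wordsOK W (relR Rb inv) inv sp) nW 3 = true := by decide +kernel
theorem d0 : allBits (fun k => bif Nat.blt k 6 then chkDef Eo inv k else true) 13 0 = true := by decide +kernel
theorem s0 : chkStream Eo inv W isH 9 6 0x1b000005000001800002e0000080000058000064000014000006000002000004800000400000000000780000340000020000030000090000008000020000000000007800000400000600000500000a000001c000016000005000005000001800002800000700000580000100000100000060000020000008000020000003000002800001c000012000003000002000004800000a000002000001000000000001e000001000001800000400000000000d0000008000003ffffffffffff = true := by decide +kernel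
theorem c0 : Covered Eo inv W isH 6 15 := covered_of_stream 9 6 _ s0
theorem l0 : chkPoints Eo cF (2 * nEv) N ys 6 0 0xe000001000002e000005000004800001000003a000005000003800000c00001000000500000a800000c00000c00000400000280000080000260000020000018000004000008000003000000800000000000400000200000880000040000000000010000070000000000018000000 = true := by decide +kernel
theorem k0 : LinksOK Eo cF (2 * nEv) N ys 0 6 := linksOK_of_points 6 0 _ l0
end Cfsg.Agent.Lib.ToddCox.M21C2
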